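/-
Matrices over a small finite field, packed into single numbers in the base of the field so that the kernel evaluates
their products at once; orbits of matrix groups on vectors; stabiliser chains.
-/
import Cfsg.Agent.Lib.TC.Lower
import Cfsg.Agent.Lib.TC.Fast.Defs

set_option autoImplicit false

namespace Cfsg.Agent.Lib.Mat

open Cfsg.Agent.Lib.TC Cfsg.Agent.Lib.TC.Fast

/-- A finite field with its elements numbered. -/
structure CF (K : Type*) [Field K] where
  q : ℕ
  c : ℕ → K
  code : K → ℕ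
  add : ℕ → ℕ → ℕ
  mul : ℕ → ℕ → ℕ
  hq : 1 < q
  hcode : ∀ x, code x < q ∧ c (code x) = x
  hinj : ∀ a b, a < q → b < q → c a = c b → a = b
  hadd : ∀ a b, add a b < q ∧ c (add a b) = c a + c b
  hmul : ∀ a b, mul a b < q ∧ c (mul a b) = c a * c b
  h0 : c 0 = 0
  h1 : c 1 = 1

/-- A digit. -/
noncomputable def dig (q i p : ℕ) : ℕ := Nat.mod (Nat.div p (Nat.pow q i)) q

/-- Digits to a number: `f s, f (s+1), …`. -/
noncomputable def pk (q : ℕ) (f : ℕ → ℕ) (m : ℕ) : ℕ → ℕ :=
  Nat.rec (motive := fun _ => ℕ → ℕ) (fun _ => 0) (fun _ ih s => Nat.add (f s) (Nat.mul q (ih (Nat.succ s)))) m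

theorem pk_succ (q : ℕ) (f : ℕ → ℕ) (m s : ℕ) : pk q f (m + 1) s = f s + q * pk q f m (s + 1) := rfl

theorem dig_pk {q : ℕ} (hq : 0 < q) {f : ℕ → ℕ} {m s : ℕ} (hf : ∀ j, f j < q) {i : ℕ} (hi : i < m) :
    dig q i (pk q f m s) = f (s + i) := by
  induction m generalizing s i with
  | zero => omega
  | succ m ih =>
    rw [pk_succ]
    cases i with
    | zero =>
      show (f s + q * pk q f m (s + 1)) / q ^ 0 % q = f (s + 0)
      rw [pow_zero, Nat.div_one, Nat.add_mul_mod_self_left, Nat.add_zero, Nat.mod_eq_of_lt (hf s)]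
    | succ i =>
      show (f s + q * pk q f m (s + 1)) / q ^ (i + 1) % q = f (s + (i + 1))
      rw [pow_succ', ← Nat.div_div_eq_div_mul, Nat.add_mul_div_left _ _ hq, Nat.div_eq_of_lt (hf s), Nat.zero_add]
      have := ih (s := s + 1) (hi := Nat.lt_of_succ_lt_succ hi)
      rw [show s + (i + 1) = s + 1 + i by omega]
      exact this

theorem pk_lt {q : ℕ} (hq : 0 < q) {f : ℕ → ℕ} (hf : ∀ j, f j < q) (m s : ℕ) : pk q f m s < q ^ m := by
  induction m generalizing s with
  | zero => simp [pk]
  | succ m ih =>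
    rw [pk_succ, pow_succ']
    have h1 := ih (s + 1)
    have h2 := hf s
    calc f s + q * pk q f m (s + 1) < q + q * pk q f m (s + 1) := by omega
      _ = q * (pk q f m (s + 1) + 1) := by ring
      _ ≤ q * q ^ m := Nat.mul_le_mul_left _ h1

theorem dig_lt {q : ℕ} (hq : 0 < q) (i p : ℕ) : dig q i p < q := Nat.mod_lt _ hq

/-- Numbers below `q ^ m` are determined by their digits. -/
theorem eq_of_dig {q : ℕ} (hq : 0 < q) (m : ℕ) {a b : ℕ} (ha : a < q ^ m) (hb : b < q ^ m)
    (h : ∀ i, i < m → dig q i a = dig q i b) : a = b := by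
  induction m generalizing a b with
  | zero =>
    simp at ha hb
    omega
  | succ m ih =>
    have e0 : ∀ x, dig q 0 x = x % q := fun x => by
      show x / q ^ 0 % q = _
      rw [pow_zero, Nat.div_one]
    have es : ∀ (i x : ℕ), dig q (i + 1) x = dig q i (x / q) := fun i x => by
      show x / q ^ (i + 1) % q = x / q / q ^ i % q
      rw [pow_succ', Nat.div_div_eq_div_mul]
    have h0 : a % q = b % q := by
      have := h 0 (by omega)
      rwa [e0, e0] at this
    have h1 : a / q = b / q := by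
      apply ih
      · rw [pow_succ'] at ha
        exact Nat.div_lt_of_lt_mul ha
      · rw [pow_succ'] at hb
        exact Nat.div_lt_of_lt_mul hb
      · intro i hi
        have := h (i + 1) (by omega)
        rwa [es, es] at this
    rw [← Nat.mod_add_div a q, ← Nat.mod_add_div b q, h0, h1]

variable {K : Type*} [Field K] (F : CF K)

/-- The sum of products. -/
noncomputable def dotF (n : ℕ) (f g : ℕ → ℕ) : ℕ :=
  Nat.rec (motive := fun _ => ℕ) 0 (fun k acc => F.add acc (F.mul (f k) (g k))) n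

theorem dotF_succ (n : ℕ) (f g : ℕ → ℕ) : dotF F (n + 1) f g = F.add (dotF F n f g) (F.mul (f n) (g n)) := rfl

theorem dotF_lt (n : ℕ) (f g : ℕ → ℕ) : dotF F n f g < F.q := by
  cases n with
  | zero => exact lt_trans Nat.zero_lt_one F.hq
  | succ n => exact (F.hadd _ _).1

theorem c_dotF (n : ℕ) (f g : ℕ → ℕ) : F.c (dotF F n f g) = ∑ k : Fin n, F.c (f k) * F.c (g k) := by
  induction n with
  | zero => simp [dotF, F.h0]
  | succ n ih =>
    rw [dotF_succ, (F.hadd _ _).2, (F.hmul _ _).2, ih, Fin.sum_univ_castSucc]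
    rfl

/-- An entry of a packed matrix. -/
noncomputable def ent (n A i j : ℕ) : ℕ := dig F.q (Nat.add (Nat.mul n i) j) A

/-- The product of packed matrices. -/
noncomputable def mm (n A B : ℕ) : ℕ :=
  pk F.q (fun idx => dotF F n (fun k => ent F n A (Nat.div idx n) k) (fun k => ent F n B k (Nat.mod idx n)))
    (Nat.mul n n) 0

theorem ent_mm {n : ℕ} (A B : ℕ) {i j : ℕ} (hi : i < n) (hj : j < n) :
    ent F n (mm F n A B) i j = dotF F n (fun k => ent F n A i k) (fun k => ent F n B k j) := by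
  have hq : 0 < F.q := lt_trans Nat.zero_lt_one F.hq
  have h1 : n * i + j < n * n := by
    calc n * i + j < n * i + n := by omega
      _ = n * (i + 1) := by ring
      _ ≤ n * n := Nat.mul_le_mul_left _ hi
  show dig F.q (n * i + j) (pk F.q _ (n * n) 0) = _
  rw [dig_pk hq (fun _ => dotF_lt F _ _ _) h1, Nat.zero_add]
  have hn : 0 < n := by omega
  have e1 : Nat.div (n * i + j) n = i := by
    show (n * i + j) / n = i
    rw [Nat.mul_add_div hn, Nat.div_eq_of_lt hj, Nat.add_zero]
  have e2 : Nat.mod (n * i + j) n = j := by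
    show (n * i + j) % n = j
    rw [Nat.mul_add_mod, Nat.mod_eq_of_lt hj]
  simp only [e1, e2]

/-- The matrix of a number. -/
noncomputable def toM (n A : ℕ) : Matrix (Fin n) (Fin n) K := Matrix.of fun i j => F.c (ent F n A i j)

/-- The vector of a number. -/
noncomputable def toV (n v : ℕ) : Fin n → K := fun i => F.c (dig F.q i v)

theorem toM_mm (n A B : ℕ) : toM F n (mm F n A B) = toM F n A * toM F n B := by
  ext i j
  rw [Matrix.mul_apply]
  show F.c (ent F n (mm F n A B) i j) = _
  rw [ent_mm F A B i.2 j.2, c_dotF]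
  rfl

/-- The product of a packed matrix with a packed vector. -/
noncomputable def mv (n A v : ℕ) : ℕ :=
  pk F.q (fun i => dotF F n (fun k => ent F n A i k) (fun k => dig F.q k v)) n 0

theorem toV_mv (n A v : ℕ) : toV F n (mv F n A v) = Matrix.mulVec (toM F n A) (toV F n v) := by
  ext i
  have hq : 0 < F.q := lt_trans Nat.zero_lt_one F.hq
  show F.c (dig F.q i (pk F.q _ n 0)) = _
  rw [dig_pk hq (fun _ => dotF_lt F _ _ _) i.2, Nat.zero_add, c_dotF]
  rfl

theorem mv_lt (n A v : ℕ) : mv F n A v < F.q ^ n := pk_lt (lt_trans Nat.zero_lt_one F.hq) (fun _ => dotF_lt F _ _ _) n 0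

/-- The number of a vector. -/
noncomputable def enc (n : ℕ) (v : Fin n → K) : ℕ :=
  pk F.q (fun i => if h : i < n then F.code (v ⟨i, h⟩) else 0) n 0

theorem enc_lt (n : ℕ) (v : Fin n → K) : enc F n v < F.q ^ n := by
  have hq : 0 < F.q := lt_trans Nat.zero_lt_one F.hq
  apply pk_lt hq
  intro j
  split_ifs
  · exact (F.hcode _).1
  · exact hq

theorem toV_enc (n : ℕ) (v : Fin n → K) : toV F n (enc F n v) = v := by
  ext i
  have hq : 0 < F.q := lt_trans Nat.zero_lt_one F.hq
  show F.c (dig F.q i (pk F.q _ n 0)) = _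
  rw [dig_pk hq ?_ i.2, Nat.zero_add, dif_pos i.2]
  · exact (F.hcode _).2
  · intro j
    split_ifs
    · exact (F.hcode _).1
    · exact hq

theorem toV_inj {n a b : ℕ} (ha : a < F.q ^ n) (hb : b < F.q ^ n) (h : toV F n a = toV F n b) : a = b := by
  have hq : 0 < F.q := lt_trans Nat.zero_lt_one F.hq
  apply eq_of_dig hq n ha hb
  intro i hi
  apply F.hinj _ _ (dig_lt hq _ _) (dig_lt hq _ _)
  exact congrFun h ⟨i, hi⟩

/-- The product along a word, with each partial product forced to a literal. -/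
noncomputable def evalP (n : ℕ) (Ms : ℕ → ℕ) (w : List ℕ) : ℕ → ℕ :=
  List.rec (motive := fun _ => ℕ → ℕ) (fun a => a)
    (fun g _ ih a => Nat.rec (motive := fun _ => ℕ) (ih 0) (fun m _ => ih (Nat.succ m)) (mm F n a (Ms g))) w

theorem rec_force' (x : ℕ) (k : ℕ → ℕ) :
    (Nat.rec (motive := fun _ => ℕ) (k 0) (fun n _ => k (Nat.succ n)) x : ℕ) = k x := by
  cases x <;> rfl

theorem toM_evalP (n : ℕ) (Ms : ℕ → ℕ) (w : List ℕ) (a : ℕ) :
    toM F n (evalP F n Ms w a) = toM F n a * (w.map fun g => toM F n (Ms g)).prod := by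
  induction w generalizing a with
  | nil => simp [evalP]
  | cons g w ih =>
    show toM F n (Nat.rec (motive := fun _ => ℕ) (evalP F n Ms w 0) (fun m _ => evalP F n Ms w (Nat.succ m)) (mm F n a (Ms g))) = _
    rw [rec_force' (mm F n a (Ms g)) (evalP F n Ms w), ih, toM_mm, List.map_cons, List.prod_cons, mul_assoc]

/-- The identity. -/
noncomputable def oneP (n : ℕ) : ℕ :=
  pk F.q (fun idx => if Nat.beq (Nat.div idx n) (Nat.mod idx n) then 1 else 0) (Nat.mul n n) 0

theorem toM_oneP (n : ℕ) : toM F n (oneP F n) = 1 := by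
  have hq : 0 < F.q := lt_trans Nat.zero_lt_one F.hq
  ext i j
  show F.c (dig F.q (n * i + j) (pk F.q _ (n * n) 0)) = _
  have h1 : n * i + j < n * n := by
    calc n * i + j < n * i + n := by have := j.2; omega
      _ = n * (i + 1) := by ring
      _ ≤ n * n := Nat.mul_le_mul_left _ i.2
  have hn : 0 < n := by have := i.2; omega
  rw [dig_pk hq ?_ h1, Nat.zero_add]
  · have e1 : Nat.div (n * i + j) n = i := by
      show (n * i + j) / n = i
      rw [Nat.mul_add_div hn, Nat.div_eq_of_lt j.2, Nat.add_zero]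
    have e2 : Nat.mod (n * i + j) n = j := by
      show (n * i + j) % n = j
      rw [Nat.mul_add_mod, Nat.mod_eq_of_lt j.2]
    simp only [e1, e2, Matrix.one_apply]
    by_cases hij : i = j
    · subst hij
      simp [F.h1]
    · have : (i : ℕ) ≠ j := fun h => hij (Fin.ext h)
      rw [if_neg hij, if_neg, F.h0]
      intro h
      exact this (Nat.eq_of_beq_eq_true h)
  · intro k
    split_ifs
    · exact F.hq
    · exact hq

end Cfsg.Agent.Lib.Mat
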