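/-
Stabiliser chains of groups of matrices acting on vectors: the group is generated by a subgroup, and has an order
that is a product of orbit sizes, when the orbits are all of the vectors allowed by the invariants.
-/
import Cfsg.Agent.Lib.Mat.Kit

set_option autoImplicit false

namespace Cfsg.Agent.Lib.Mat

open Cfsg.Agent.Lib.TC Cfsg.Agent.Lib.TC.Fast

section Abstract

variable {Γ X : Type*} [Group Γ] (α : Γ →* Equiv.Perm X)

/-- The pointwise stabiliser of a list. -/
def stabL (bs : List X) : Subgroup Γ where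
  carrier := {g | ∀ b ∈ bs, α g b = b}
  mul_mem' := by
    intro a c ha hc b hb
    show α (a * c) b = b
    rw [map_mul, Equiv.Perm.mul_apply, hc b hb, ha b hb]
  one_mem' := by
    intro b _
    simp
  inv_mem' := by
    intro a ha b hb
    show α a⁻¹ b = b
    rw [map_inv, Equiv.Perm.inv_eq_iff_eq, ha b hb]

theorem mem_stabL {bs : List X} {g : Γ} : g ∈ stabL α bs ↔ ∀ b ∈ bs, α g b = b := Iff.rfl

theorem mem_stabL_cons {b : X} {bs : List X} {g : Γ} : g ∈ stabL α (b :: bs) ↔ α g b = b ∧ g ∈ stabL α bs := by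
  simp [mem_stabL]

theorem stabL_nil : stabL α [] = ⊤ := by
  ext g
  simp [mem_stabL]

theorem sift_step {J : Subgroup Γ} {bs : List X} {b : X} (h1 : stabL α (b :: bs) ≤ J)
    (hR : ∀ g ∈ stabL α bs, ∃ t ∈ J, t ∈ stabL α bs ∧ α t b = α g b) : stabL α bs ≤ J := by
  intro g hg
  obtain ⟨t, ht, hts, he⟩ := hR g hg
  have h2 : t⁻¹ * g ∈ stabL α (b :: bs) := by
    rw [mem_stabL_cons]
    refine ⟨?_, (stabL α bs).mul_mem ((stabL α bs).inv_mem hts) hg⟩
    rw [map_mul, Equiv.Perm.mul_apply, ← he, map_inv]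
    simp
  have h3 := J.mul_mem ht (h1 h2)
  simpa using h3

theorem card_step {bs : List X} {b : X} {O : Set X} (hO : ∀ x, x ∈ O ↔ ∃ g ∈ stabL α bs, α g b = x) :
    Nat.card (stabL α bs) = O.ncard * Nat.card (stabL α (b :: bs)) := by
  classical
  let A := stabL α bs
  let _ : MulAction A X := MulAction.compHom X (α.comp A.subtype)
  have hact : ∀ (a : A) (x : X), a • x = α a.1 x := fun _ _ => rfl
  have h1 := (MulAction.stabilizer A b).card_mul_index
  rw [MulAction.index_stabilizer] at h1
  have h2 : MulAction.orbit A b = O := by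
    ext x
    rw [hO, MulAction.mem_orbit_iff]
    constructor
    · rintro ⟨a, rfl⟩
      exact ⟨a.1, a.2, rfl⟩
    · rintro ⟨g, hg, rfl⟩
      exact ⟨⟨g, hg⟩, rfl⟩
  have h3 : Nat.card (MulAction.stabilizer A b) = Nat.card (stabL α (b :: bs)) := by
    apply Nat.card_congr
    refine ⟨fun y => ⟨y.1.1, mem_stabL_cons α |>.2 ⟨y.2, y.1.2⟩⟩,
      fun y => ⟨⟨y.1, ((mem_stabL_cons α).1 y.2).2⟩, ((mem_stabL_cons α).1 y.2).1⟩, ?_, ?_⟩
    · intro y
      rfl
    · intro y
      rfl
  rw [h2, h3] at h1
  rw [← h1, mul_comm]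

end Abstract

section Coded

variable {K : Type*} [Field K] (F : CF K) {n : ℕ} {Γ : Type*} [Group Γ] (ι : Γ →* Matrix (Fin n) (Fin n) K)

/-- The action of a group of matrices on vectors. -/
noncomputable def actPerm : Γ →* Equiv.Perm (Fin n → K) where
  toFun g :=
    { toFun := fun v => (ι g).mulVec v
      invFun := fun v => (ι g⁻¹).mulVec v
      left_inv := fun v => by
        show (ι g⁻¹).mulVec ((ι g).mulVec v) = v
        rw [Matrix.mulVec_mulVec, ← map_mul]
        simp
      right_inv := fun v => by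
        show (ι g).mulVec ((ι g⁻¹).mulVec v) = v
        rw [Matrix.mulVec_mulVec, ← map_mul]
        simp }
  map_one' := by
    ext v
    simp
  map_mul' := by
    intro a b
    ext v
    simp [Matrix.mulVec_mulVec]

theorem actPerm_apply (g : Γ) (v : Fin n → K) : actPerm ι g v = (ι g).mulVec v := rfl

/-- Follow the entries `(p, par, g)` of an orbit: `par` was seen, and the generator `g` takes it to `p`. The result is
the mask of the points seen, or `0`. -/
noncomputable def reachF (n : ℕ) (Ms : ℕ → ℕ) (nG : ℕ) (es : List (ℕ × ℕ × ℕ)) : ℕ → ℕ :=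
  List.rec (motive := fun _ => ℕ → ℕ) (fun m => m)
    (fun e _ ih m =>
      Bool.rec 0
        (Bool.rec 0
          (Bool.rec 0
            (Nat.rec (motive := fun _ => ℕ) (ih 0) (fun k _ => ih (Nat.succ k))
              (Nat.lor m (Nat.shiftLeft (nat_lit 1) e.1)))
            (Nat.beq (mv F n (Ms e.2.2) e.2.1) e.1))
          (Nat.blt e.2.2 nG))
        (bitOf m e.2.1)) es

theorem reachF_spec {Ms : ℕ → ℕ} {nG : ℕ} {O : ℕ → Prop}
    (hstep : ∀ g, g < nG → ∀ p, O p → O (mv F n (Ms g) p)) (es : List (ℕ × ℕ × ℕ)) (m : ℕ)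
    (hm : ∀ p, m.testBit p = true → O p) : ∀ p, (reachF F n Ms nG es m).testBit p = true → O p := by
  induction es generalizing m with
  | nil => exact hm
  | cons e es ih =>
    obtain ⟨p', par, g⟩ := e
    intro p hp
    have hdef : reachF F n Ms nG ((p', par, g) :: es) m =
      Bool.rec 0
        (Bool.rec 0
          (Bool.rec 0
            (Nat.rec (motive := fun _ => ℕ) (reachF F n Ms nG es 0) (fun k _ => reachF F n Ms nG es (Nat.succ k))
              (Nat.lor m (Nat.shiftLeft (nat_lit 1) p')))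
            (Nat.beq (mv F n (Ms g) par) p'))
          (Nat.blt g nG))
        (bitOf m par) := rfl
    rw [hdef] at hp
    cases h1 : bitOf m par with
    | false => simp [h1] at hp
    | true =>
      cases h2 : Nat.blt g nG with
      | false => simp [h1, h2] at hp
      | true =>
        cases h3 : Nat.beq (mv F n (Ms g) par) p' with
        | false => simp [h1, h2, h3] at hp
        | true =>
          simp only [h1, h2, h3] at hp
          rw [rec_force' (Nat.lor m (Nat.shiftLeft 1 p')) (reachF F n Ms nG es)] at hp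
          refine ih _ ?_ p hp
          intro q hq
          have e1 : Nat.lor m (Nat.shiftLeft 1 p') = m ||| (1 <<< p') := rfl
          rw [e1, Nat.testBit_or, Bool.or_eq_true] at hq
          rcases hq with hq | hq
          · exact hm q hq
          · rw [testBit_shift_one] at hq
            subst hq
            have h4 : mv F n (Ms g) par = q := Nat.eq_of_beq_eq_true h3
            rw [← h4]
            exact hstep g (nat_blt_true h2) par (hm par ((bitOf_iff _ _).1 h1))

/-- The count of a Boolean function. -/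
noncomputable def cntF (C : ℕ → Bool) (N : ℕ) : ℕ :=
  Nat.rec (motive := fun _ => ℕ) 0 (fun k acc => Bool.rec acc (Nat.succ acc) (C k)) N

theorem cntF_eq (C : ℕ → Bool) (N : ℕ) : cntF C N = ((Finset.range N).filter fun p => C p = true).card := by
  induction N with
  | zero => rfl
  | succ N ih =>
    show (Bool.rec (cntF C N) (Nat.succ (cntF C N)) (C N) : ℕ) = _
    rw [Finset.range_add_one, Finset.filter_insert, ih]
    cases h : C N with
    | false => simp
    | true =>
      simp only [if_true]
      rw [Finset.card_insert_of_notMem]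
      simp

/-- The check of a level. -/
noncomputable def lvCheck (n : ℕ) (Ms : ℕ → ℕ) (nG : ℕ) (C : ℕ → Bool) (es : List (ℕ × ℕ × ℕ)) (ib N : ℕ) : Bool :=
  fb (reachF F n Ms nG es (Nat.shiftLeft (nat_lit 1) ib))
    (fun M => allF (fun p => Bool.rec true (bitOf M p) (C p)) 0 N)

theorem fb_eq (x : ℕ) (k : ℕ → Bool) : fb x k = k x := by
  cases x <;> rfl

theorem allF_spec' (f : ℕ → Bool) (n : ℕ) (h : allF f 0 n = true) : ∀ i, i < n → f i = true := by
  induction n with
  | zero => intro i hi; omega
  | succ n ih =>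
    intro i hi
    have h1 : bf (f (Nat.add 0 n)) (allF f 0 n) false = true := h
    cases h2 : f (Nat.add 0 n) with
    | false =>
      rw [h2] at h1
      exact absurd h1 (by simp [bf])
    | true =>
      rw [h2] at h1
      have h3 := ih h1
      rcases Nat.lt_succ_iff_lt_or_eq.1 hi with h4 | h4
      · exact h3 i h4
      · subst h4
        have : Nat.add 0 i = i := Nat.zero_add i
        rwa [this] at h2

/-- One level of a stabiliser chain. -/
theorem level {J : Subgroup Γ} {bs : List (Fin n → K)} {Ms : ℕ → ℕ} {nG : ℕ} {gens : ℕ → Γ} {C : ℕ → Bool}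
    {es : List (ℕ × ℕ × ℕ)} {ib N : ℕ} (hN : N = F.q ^ n) (hib : ib < N)
    (hgens : ∀ g, g < nG → gens g ∈ J ∧ gens g ∈ stabL (actPerm ι) bs ∧ ι (gens g) = toM F n (Ms g))
    (hck : lvCheck F n Ms nG C es ib N = true)
    (hC : ∀ g ∈ stabL (actPerm ι) bs, ∀ p, p < N → actPerm ι g (toV F n ib) = toV F n p → C p = true) :
    (∀ g ∈ stabL (actPerm ι) bs, ∃ t ∈ J, t ∈ stabL (actPerm ι) bs ∧ actPerm ι t (toV F n ib) = actPerm ι g (toV F n ib)) ∧
      Nat.card (stabL (actPerm ι) bs) = cntF C N * Nat.card (stabL (actPerm ι) (toV F n ib :: bs)) := by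
  classical
  let O : ℕ → Prop := fun p => ∃ t ∈ J, t ∈ stabL (actPerm ι) bs ∧ actPerm ι t (toV F n ib) = toV F n p
  have hstep : ∀ g, g < nG → ∀ p, O p → O (mv F n (Ms g) p) := by
    rintro g hg p ⟨t, h1, h2, h3⟩
    obtain ⟨h4, h5, h6⟩ := hgens g hg
    refine ⟨gens g * t, J.mul_mem h4 h1, (stabL (actPerm ι) bs).mul_mem h5 h2, ?_⟩
    rw [map_mul, Equiv.Perm.mul_apply, h3, toV_mv, actPerm_apply, h6]
  have hbase : ∀ p, (Nat.shiftLeft 1 ib).testBit p = true → O p := by
    intro p hp
    have e1 : Nat.shiftLeft 1 ib = 1 <<< ib := rfl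
    rw [e1, testBit_shift_one] at hp
    subst hp
    exact ⟨1, J.one_mem, (stabL (actPerm ι) bs).one_mem, by simp⟩
  have hreach := reachF_spec F hstep es _ hbase
  rw [lvCheck, fb_eq] at hck
  have hall := allF_spec' _ _ hck
  have hcov : ∀ p, p < N → C p = true → O p := by
    intro p hp hCp
    have h1 := hall p hp
    simp only [hCp] at h1
    exact hreach p ((bitOf_iff _ _).1 h1)
  have hq : 0 < F.q := lt_trans Nat.zero_lt_one F.hq
  have henc : ∀ g ∈ stabL (actPerm ι) bs, enc F n (actPerm ι g (toV F n ib)) < N ∧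
      C (enc F n (actPerm ι g (toV F n ib))) = true := by
    intro g hg
    have h1 : enc F n (actPerm ι g (toV F n ib)) < N := by
      rw [hN]
      exact enc_lt F n _
    exact ⟨h1, hC g hg _ h1 (toV_enc F n _).symm⟩
  refine ⟨?_, ?_⟩
  · intro g hg
    obtain ⟨h1, h2⟩ := henc g hg
    obtain ⟨t, h3, h4, h5⟩ := hcov _ h1 h2
    refine ⟨t, h3, h4, ?_⟩
    rw [h5, toV_enc]
  · let S : Set ℕ := {p | p < N ∧ C p = true}
    have hO : ∀ x, x ∈ toV F n '' S ↔ ∃ g ∈ stabL (actPerm ι) bs, actPerm ι g (toV F n ib) = x := by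
      intro x
      constructor
      · rintro ⟨p, ⟨h1, h2⟩, rfl⟩
        obtain ⟨t, _, h4, h5⟩ := hcov p h1 h2
        exact ⟨t, h4, h5⟩
      · rintro ⟨g, hg, rfl⟩
        obtain ⟨h1, h2⟩ := henc g hg
        exact ⟨_, ⟨h1, h2⟩, toV_enc F n _⟩
    have h1 := card_step (actPerm ι) hO
    rw [h1]
    congr 1
    rw [Set.ncard_image_of_injOn]
    · rw [cntF_eq]
      have : S = ↑((Finset.range N).filter fun p => C p = true) := by
        ext p
        simp [S]
      rw [this, Set.ncard_coe_finset]
    · intro a ha b hb h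
      apply toV_inj F (n := n) _ _ h
      · rw [← hN]
        exact ha.1
      · rw [← hN]
        exact hb.1

end Coded

end Cfsg.Agent.Lib.Mat
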