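/-
The field with four elements, with its elements numbered.
-/
import Cfsg.Agent.Lib.Mat.Sift
import Cfsg.Agent.Lib.Classical.F4

set_option autoImplicit false

namespace Cfsg.Agent.Lib.Mat

open Cfsg.Agent.Lib.Classical.FF4 Cfsg.Agent.Lib.Classical.Bin

/-- The element of a number. -/
def cF4 (a : ℕ) : F4 := ⟨((a % 2 : ℕ) : ZMod 2), ((a / 2 % 2 : ℕ) : ZMod 2)⟩

/-- The product of numbers below four. -/
noncomputable def mulF4 (a b : ℕ) : ℕ :=
  Nat.land (Nat.shiftRight (nat_lit 2625168384) (Nat.mul 2 (Nat.add (Nat.mul 4 (Nat.mod a 4)) (Nat.mod b 4)))) 3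

/-- The sum of numbers below four. -/
noncomputable def addF4 (a b : ℕ) : ℕ := Nat.xor (Nat.mod a 4) (Nat.mod b 4)

theorem cF4_mod (a : ℕ) : cF4 (a % 4) = cF4 a := by
  have h1 : a % 4 % 2 = a % 2 := by omega
  have h2 : a % 4 / 2 % 2 = a / 2 % 2 := by omega
  simp only [cF4, h1, h2]

theorem add_small : ∀ i, i < 4 → ∀ j, j < 4 → addF4 i j < 4 ∧ cF4 (addF4 i j) = cF4 i + cF4 j := by
  decide +kernel

theorem mul_small : ∀ i, i < 4 → ∀ j, j < 4 → mulF4 i j < 4 ∧ cF4 (mulF4 i j) = cF4 i * cF4 j := by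
  decide +kernel

theorem cF4_code : ∀ x : F4, x.re.val + 2 * x.im.val < 4 ∧ cF4 (x.re.val + 2 * x.im.val) = x := by
  decide +kernel

theorem cF4_inj : ∀ i, i < 4 → ∀ j, j < 4 → cF4 i = cF4 j → i = j := by
  decide +kernel

/-- The numbering of the field with four elements. -/
noncomputable def cfF4 : CF F4 where
  q := 4
  c := cF4
  code x := x.re.val + 2 * x.im.val
  add := addF4
  mul := mulF4
  hq := by norm_num
  hcode := cF4_code
  hinj a b ha hb h := cF4_inj a ha b hb h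
  hadd a b := by
    have h := add_small (a % 4) (Nat.mod_lt _ (by norm_num)) (b % 4) (Nat.mod_lt _ (by norm_num))
    have e : addF4 (a % 4) (b % 4) = addF4 a b := by
      show Nat.xor (a % 4 % 4) (b % 4 % 4) = Nat.xor (a % 4) (b % 4)
      rw [Nat.mod_mod, Nat.mod_mod]
    rw [e, cF4_mod, cF4_mod] at h
    exact h
  hmul a b := by
    have h := mul_small (a % 4) (Nat.mod_lt _ (by norm_num)) (b % 4) (Nat.mod_lt _ (by norm_num))
    have e : mulF4 (a % 4) (b % 4) = mulF4 a b := by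
      show Nat.land (Nat.shiftRight 2625168384 (2 * (4 * (a % 4 % 4) + b % 4 % 4))) 3 =
        Nat.land (Nat.shiftRight 2625168384 (2 * (4 * (a % 4) + b % 4))) 3
      rw [Nat.mod_mod, Nat.mod_mod]
    rw [e, cF4_mod, cF4_mod] at h
    exact h
  h0 := by decide +kernel
  h1 := by decide +kernel

end Cfsg.Agent.Lib.Mat
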