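/-
The integers modulo a prime, with their elements numbered.
-/
import Cfsg.Agent.Lib.Mat.Sift

set_option autoImplicit false

namespace Cfsg.Agent.Lib.Mat

/-- The numbering of the integers modulo a prime. -/
noncomputable def cfZMod (p : ℕ) [Fact p.Prime] : CF (ZMod p) where
  q := p
  c a := (a : ZMod p)
  code x := x.val
  add a b := Nat.mod (Nat.add a b) p
  mul a b := Nat.mod (Nat.mul a b) p
  hq := (Fact.out : p.Prime).one_lt
  hcode x := ⟨ZMod.val_lt x, ZMod.natCast_zmod_val x⟩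
  hinj a b ha hb h := by
    have h1 := (ZMod.natCast_eq_natCast_iff' a b p).1 h
    rwa [Nat.mod_eq_of_lt ha, Nat.mod_eq_of_lt hb] at h1
  hadd a b := by
    refine ⟨Nat.mod_lt _ (Fact.out : p.Prime).pos, ?_⟩
    show (((a + b) % p : ℕ) : ZMod p) = _
    rw [ZMod.natCast_mod]
    push_cast
    rfl
  hmul a b := by
    refine ⟨Nat.mod_lt _ (Fact.out : p.Prime).pos, ?_⟩
    show (((a * b) % p : ℕ) : ZMod p) = _
    rw [ZMod.natCast_mod]
    push_cast
    rfl
  h0 := Nat.cast_zero
  h1 := Nat.cast_one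

end Cfsg.Agent.Lib.Mat
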